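import Cfsg.Agent.H112.GLB.Abs
import Cfsg.Agent.H614.GLn.IrrLab
import Cfsg.Agent.H421.GLn.NeckRS

/-!
# HUB S4537 / S4536: the labels of the irreducible characters for an abstract realization (GB1)

* `Rz.bij_of` : `R.Bij m` from (R1) the indicator function of the identity is realized, and (R3) the Schur products
  are realized by generalized characters;
* `Fl` : a family of predicates `P n` on the elements of weight `n` closed under the additive group operations and
  under the multiplication by the necklace elements `En Q M n k x`;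
* `schP_of_fl` : the Schur products are in such a family (from `P 0 1`);
* `bij_of_neck` : the labels classify the irreducible characters of `G n`, for a tower of realizations
  `R n : Rz Q M p n (G n)`, `n ≤ N`, such that the multiplication by the elements `En` preserves the
  generalized characters.
-/

set_option autoImplicit false
set_option linter.unusedSectionVars false

open Cfsg
open scoped ComplexConjugate

namespace Cfsg.Agent.H112.GLB

open Cfsg.Agent.H577.GLB.Std Cfsg.Agent.H614 Cfsg.Agent.H614.GLn.RSt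
open Cfsg.Agent.H421.GLn (En hRS hRS_mem hRS_zero En_zero newt newt_congr)

universe u

namespace Rz

open Cfsg.Agent.Characters.Core

variable {Q : ℤ} {M : ℕ} [NeZero M] {p n : ℕ} {G : Type u} [Group G] [Finite G] (R : Rz Q M p n G)

theorem inner_lb [Fintype G] {m : ℕ} {χ χ' : IrrCharacter G} {t t' : LabZ Q M m n} (h : R.IsLb χ t)
    (h' : R.IsLb χ' t') : ((if t.t = t'.t then 1 else 0 : ℂ) ≠ 0 ↔ classInner (χ : G → ℂ) (χ' : G → ℂ) ≠ 0) := by
  obtain ⟨s, hs⟩ := h
  obtain ⟨s', hs'⟩ := h'
  have h2 := R.iso _ (schP_mem_hom R.unit t) _ (schP_mem_hom R.unit t')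
  rw [form_SchP R.unit t t', hs, hs', classInner_smul_left, classInner_smul_right] at h2
  rw [← h2]
  have h3 : (((s : ℤ) : ℂ)) ≠ 0 := by exact_mod_cast s.ne_zero
  have h4 : conj (((s' : ℤ) : ℂ)) ≠ 0 := by
    rw [map_intCast]; exact_mod_cast s'.ne_zero
  constructor
  · intro h h5
    exact h (by rw [h5]; simp)
  · intro h
    exact mul_ne_zero h3 (mul_ne_zero h4 h)

/-- **(GB1), abstract.** -/
theorem bij_of {m : ℕ} (hm : n ≤ m)
    (h1 : ∃ x ∈ Hom Q M n, (∀ g : G, g ≠ 1 → R.om x g = 0) ∧ R.om x 1 ≠ 0)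
    (h3 : ∀ t : LabZ Q M m n, IsGeneralizedCharacter G (R.om (SchP Q M t.t))) : R.Bij m := by
  have : Fintype G := Fintype.ofFinite _
  have hex : ∀ t : LabZ Q M m n, ∃ χ : IrrCharacter G, R.IsLb χ t := by
    intro t
    have h2 := R.iso _ (schP_mem_hom R.unit t) _ (schP_mem_hom R.unit t)
    rw [form_SchP R.unit t t, if_pos rfl] at h2
    rcases isIrr_of_generalized (h3 t) h2 with h | h
    · exact ⟨⟨_, h⟩, 1, by simp⟩
    · exact ⟨⟨_, h⟩, -1, by simp⟩
  have huniq : ∀ {χ : IrrCharacter G} {t t' : LabZ Q M m n}, R.IsLb χ t → R.IsLb χ t' → t = t' := by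
    intro χ t t' h h'
    by_contra hne
    have h1 := (R.inner_lb h h').2 (by rw [classInner_irr_self χ.2]; exact one_ne_zero)
    rw [if_neg (fun h2 => hne (LabZ.ext h2))] at h1
    exact h1 rfl
  refine ⟨fun χ => ?_, fun t => ?_⟩
  · obtain ⟨t, ht⟩ : ∃ t : LabZ Q M m n, R.IsLb χ t := by
      by_contra hne
      push Not at hne
      obtain ⟨x, hx, hx1, hx2⟩ := h1
      have key : ∀ z ∈ Submodule.span ℂ (Set.range fun t : LabZ Q M m n => SchP Q M t.t),
          classInner (R.om z) (χ : G → ℂ) = 0 := by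
        intro z hz
        induction hz using Submodule.span_induction with
        | mem z hz =>
          obtain ⟨t, rfl⟩ := hz
          obtain ⟨χ', s, hs⟩ := hex t
          rw [hs, classInner_smul_left, classInner_irr_ne χ'.2 χ.2, mul_zero]
          intro h1
          exact hne t ⟨s, by rw [hs, h1]⟩
        | zero => rw [map_zero, classInner_zero_left]
        | add a b _ _ ha hb => rw [map_add, classInner_add_left, ha, hb, add_zero]
        | smul c a _ ha => rw [map_smul, classInner_smul_left, ha, mul_zero]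
      have h4 := key x (Hom_le_span R.unit hm hx)
      rw [classInner_def, Finset.sum_eq_single 1 (fun g _ hg => by rw [hx1 g hg, zero_mul])
        (fun h => absurd (Finset.mem_univ _) h)] at h4
      have h5 := (mul_eq_zero.1 h4).resolve_left (inv_ne_zero (Nat.cast_ne_zero.2 Nat.card_pos.ne'))
      have h6 := (mul_eq_zero.1 h5).resolve_left hx2
      exact isIrr_apply_one_ne_zero χ.2 ((map_eq_zero _).1 h6)
    exact ⟨t, ht, fun t' ht' => huniq ht' ht⟩
  · obtain ⟨χ, hχ⟩ := hex t
    refine ⟨χ, hχ, fun χ' hχ' => ?_⟩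
    by_contra hne
    have h1 := (R.inner_lb hχ' hχ).1 (by rw [if_pos rfl]; exact one_ne_zero)
    exact h1 (classInner_irr_ne χ'.2 χ.2 fun h => hne (Subtype.ext h))

end Rz

/-! ### the grading -/

section grade

open Polynomial (coeff)

variable {Q : ℤ} {M : ℕ}

/-- the grading as an algebra homomorphism -/
noncomputable def gr (M : ℕ) : RS M →ₐ[ℂ] Polynomial (RS M) :=
  MvPolynomial.aeval fun v : Var M => Polynomial.monomial v.1 (MvPolynomial.X v)

theorem gr_monomial (s : Var M →₀ ℕ) (a : ℂ) : gr M (MvPolynomial.monomial s a) =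
    Polynomial.monomial (Finsupp.weight (fun v : Var M => v.1) s) (MvPolynomial.monomial s a) := by
  rw [gr, MvPolynomial.aeval_monomial]
  have h1 : (s.prod fun v k => (Polynomial.monomial v.1 (MvPolynomial.X v : RS M)) ^ k) =
      Polynomial.monomial (Finsupp.weight (fun v : Var M => v.1) s) (s.prod fun v k => (MvPolynomial.X v : RS M) ^ k) := by
    rw [Finsupp.weight_apply, Finsupp.prod, Finsupp.prod, Finsupp.sum]
    classical
    induction s.support using Finset.induction_on with
    | empty => simp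
    | insert v t hv ih =>
      rw [Finset.prod_insert hv, Finset.prod_insert hv, Finset.sum_insert hv, ih, Polynomial.monomial_pow,
        Polynomial.monomial_mul_monomial, smul_eq_mul, mul_comm v.1]
  rw [h1, MvPolynomial.monomial_eq, Polynomial.algebraMap_apply, Polynomial.C_mul_monomial]
  rfl

theorem gr_of_mem {n : ℕ} {x : RS M} (hx : x ∈ Hom Q M n) : gr M x = Polynomial.monomial n x := by
  conv_lhs => rw [x.as_sum]
  conv_rhs => rw [x.as_sum]
  rw [map_sum, map_sum]
  refine Finset.sum_congr rfl fun s hs => ?_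
  rw [gr_monomial, H623.GLn.Hom.weight hx hs]

variable [NeZero M]

theorem En_mem_hom (n k : ℕ) (x : ℤ) : En Q M n k x ∈ Hom Q M n := by
  induction n using Nat.strong_induction_on generalizing k with
  | _ n ih =>
    rcases Nat.eq_zero_or_pos n with rfl | hn
    · rw [En_zero]
      split_ifs
      · exact one_mem_hom
      · exact Submodule.zero_mem _
    · have h1 := H421.GLn.En_rec (Q := Q) (M := M) n k x
      have h2 : (n : RS M) * En Q M n k x ∈ Hom Q M n := by
        rw [h1]
        refine Submodule.sum_mem _ fun i hi => Submodule.sum_mem _ fun y _ => ?_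
        have hi' := Finset.mem_range.1 hi
        have h3 := mul_mem_hom (Q := Q) (M := M) (a := i + 1) (b := n - 1 - i)
          (x := ∑ S ∈ (Finset.range (i + 1)).powersetCard y.1, H421.GLn.Prs Q M (i + 1) (x * ∑ j ∈ S, Q ^ j))
          (Submodule.sum_mem _ fun S _ => rv_mem_hom _ _) (ih (n - 1 - i) (by omega) y.2)
        have h4 : i + 1 + (n - 1 - i) = n := by omega
        rwa [h4] at h3
      have h5 : En Q M n k x = ((n : ℂ)⁻¹) • ((n : RS M) * En Q M n k x) := by
        rw [Algebra.smul_def, ← mul_assoc, ← map_natCast (algebraMap ℂ (RS M)) n, ← map_mul,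
          inv_mul_cancel₀ (by exact_mod_cast hn.ne'), map_one, one_mul]
      rw [h5]
      exact Submodule.smul_mem _ _ h2

end grade

/-! ### integrality -/

/-- predicates closed under the additive group operations and the multiplication by the necklace elements -/
structure Fl (Q : ℤ) (M : ℕ) (N : ℕ) (P : ℕ → RS M → Prop) : Prop where
  one : P 0 1
  zero : ∀ n, P n 0
  add : ∀ n x y, P n x → P n y → P n (x + y)
  neg : ∀ n x, P n x → P n (-x)
  neck : ∀ n k x a y, n + a ≤ N → P a y → P (n + a) (En Q M n k x * y)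

variable {Q : ℤ} {M : ℕ} [NeZero M] {N : ℕ}

theorem Fl.sum {P : ℕ → RS M → Prop} (h : Fl Q M N P) {ι : Type*} (s : Finset ι) (n : ℕ) (f : ι → RS M)
    (hf : ∀ i ∈ s, P n (f i)) : P n (∑ i ∈ s, f i) := by
  classical
  induction s using Finset.induction_on with
  | empty => rw [Finset.sum_empty]; exact h.zero n
  | insert i s hi ih =>
    rw [Finset.sum_insert hi]
    exact h.add _ _ _ (hf i (Finset.mem_insert_self i s)) (ih fun j hj => hf j (Finset.mem_insert_of_mem hj))

/-- the ring of the elements whose components preserve the predicate -/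
noncomputable def flRing {P : ℕ → RS M → Prop} (h : Fl Q M N P) : Subring (RS M) where
  carrier := {z | ∀ a y, P a y → ∀ d, d + a ≤ N → P (d + a) ((gr M z).coeff d * y)}
  one_mem' := by
    intro a y hy d _
    rw [map_one, Polynomial.coeff_one]
    split_ifs with hd
    · rw [hd, one_mul, zero_add]; exact hy
    · rw [zero_mul]; exact h.zero _
  mul_mem' := by
    intro z z' hz hz' a y hy d hd
    rw [map_mul, Polynomial.coeff_mul, Finset.sum_mul]
    refine h.sum _ _ _ fun x hx => ?_
    have h1 := Finset.HasAntidiagonal.mem_antidiagonal.1 hx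
    have h2 := hz' a y hy x.2 (by omega)
    have h3 := hz _ _ h2 x.1 (by omega)
    rw [mul_assoc]
    have h4 : x.1 + (x.2 + a) = d + a := by omega
    rwa [h4] at h3
  add_mem' := by
    intro z z' hz hz' a y hy d hd
    rw [map_add, Polynomial.coeff_add, add_mul]
    exact h.add _ _ _ (hz a y hy d hd) (hz' a y hy d hd)
  zero_mem' := by
    intro a y _ d _
    rw [map_zero, Polynomial.coeff_zero, zero_mul]
    exact h.zero _
  neg_mem' := by
    intro z hz a y hy d hd
    rw [map_neg, Polynomial.coeff_neg, neg_mul]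
    exact h.neg _ _ (hz a y hy d hd)

theorem mem_flRing {P : ℕ → RS M → Prop} (h : Fl Q M N P) {z : RS M} : z ∈ flRing h ↔
    ∀ a y, P a y → ∀ d, d + a ≤ N → P (d + a) ((gr M z).coeff d * y) := Iff.rfl

theorem En_mem_flRing {P : ℕ → RS M → Prop} (h : Fl Q M N P) (n k : ℕ) (x : ℤ) : En Q M n k x ∈ flRing h := by
  rw [mem_flRing]
  intro a y hy d hd
  rw [gr_of_mem (En_mem_hom n k x), Polynomial.coeff_monomial]
  split_ifs with h1
  · subst h1
    exact h.neck _ _ _ _ _ hd hy
  · rw [zero_mul]; exact h.zero _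

/-- the Schur products are integral polynomials in the necklace elements -/
theorem schP_mem_flRing {P : ℕ → RS M → Prop} (h : Fl Q M N P) (hQ : IsUnit (Q : ZMod M))
    (hdvd : ∀ k, 0 < k → k ≤ N → Q ^ k - 1 ∣ (M : ℤ)) {m n : ℕ} (hn : n ≤ N) (t : LabZ Q M m n) :
    SchP Q M t.t ∈ flRing h := by
  rw [SchP_eq]
  unfold prodS
  refine Subring.prod_mem _ fun c hc => ?_
  rw [H614.GLn.SS_eq_JT _ _ (sum_eq_bsz (t.mono c))]
  have h1 := nuP_deg hQ t.t t.orb
  rw [t.sum] at h1
  have h2 := Finset.single_le_sum (f := fun c => perZ Q M c * H577.GLB.Std.bsz (t.t c)) (fun _ _ => Nat.zero_le _) hc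
  have h3 : perZ Q M c * H577.GLB.Std.bsz (t.t c) ≤ N := h2.trans (h1.le.trans hn)
  refine JT_mem (k := H577.GLB.Std.bsz (t.t c)) (fun j hj => ?_) (sum_eq_bsz (t.mono c))
  rw [hh_eq_newt]
  have hj' : j * perZ Q M c ≤ N := by
    rw [mul_comm]
    exact (Nat.mul_le_mul_left _ hj).trans h3
  exact hRS_mem hQ hdvd (flRing h) (fun n k x _ => En_mem_flRing h n k x) (perZ_pos hQ c)
    ((torZ_iff _ _).2 dvd_rfl) hj'

theorem schP_of_fl {P : ℕ → RS M → Prop} (h : Fl Q M N P) (hQ : IsUnit (Q : ZMod M))
    (hdvd : ∀ k, 0 < k → k ≤ N → Q ^ k - 1 ∣ (M : ℤ)) {m n : ℕ} (hn : n ≤ N) (t : LabZ Q M m n) :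
    P n (SchP Q M t.t) := by
  have h1 := (mem_flRing h).1 (schP_mem_flRing h hQ hdvd hn t) 0 1 h.one n hn
  rwa [gr_of_mem (schP_mem_hom hQ t), Polynomial.coeff_monomial, if_pos rfl, mul_one] at h1

/-- **GB1 for a tower of realizations**: labels classify the irreducible characters of `G n`, if the multiplication by
the necklace elements preserves the generalized characters. -/
theorem bij_of_neck {p : ℕ} (hdvd : ∀ k, 0 < k → k ≤ N → Q ^ k - 1 ∣ (M : ℤ)) (G : ℕ → Type u)
    [∀ n, Group (G n)] [∀ n, Finite (G n)] (R : ∀ n, Rz Q M p n (G n))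
    (h0 : IsGeneralizedCharacter (G 0) ((R 0).om 1))
    (h3 : ∀ (n k : ℕ) (x : ℤ) (a : ℕ) (y : RS M), n + a ≤ N → y ∈ Hom Q M a →
      IsGeneralizedCharacter (G a) ((R a).om y) →
      IsGeneralizedCharacter (G (n + a)) ((R (n + a)).om (En Q M n k x * y)))
    {m n : ℕ} (hn : n ≤ N) (hm : n ≤ m)
    (h1 : ∃ x ∈ Hom Q M n, (∀ g : G n, g ≠ 1 → (R n).om x g = 0) ∧ (R n).om x 1 ≠ 0) : (R n).Bij m := by
  refine (R n).bij_of hm h1 fun t => ?_
  have hFl : Fl Q M N fun n y => y ∈ Hom Q M n ∧ IsGeneralizedCharacter (G n) ((R n).om y) :=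
    { one := ⟨one_mem_hom, h0⟩
      zero := fun n => ⟨Submodule.zero_mem _, by
        rw [map_zero]
        exact OddOrderCharacters.VChar.gen_zero⟩
      add := fun n x y hx hy => ⟨Submodule.add_mem _ hx.1 hy.1, by
        rw [map_add]
        exact OddOrderCharacters.VChar.gen_add hx.2 hy.2⟩
      neg := fun n x hx => ⟨Submodule.neg_mem _ hx.1, by
        rw [map_neg]
        exact OddOrderCharacters.VChar.gen_neg hx.2⟩
      neck := fun n k x a y hna hy => ⟨mul_mem_hom (En_mem_hom n k x) hy.1, h3 n k x a y hna hy.1 hy.2⟩ }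
  exact (schP_of_fl hFl (R n).unit hdvd hn t).2

end Cfsg.Agent.H112.GLB
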